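import Cfsg.Agent.Lib.Helper21.Uni.Defs
import Cfsg.Agent.S0752

set_option autoImplicit false

/-! # Uni farm (helper21), piece [S3] -/

namespace Cfsg.Agent.Lib.Helper96.Uni

open Matrix Module Cfsg.Agent.Lib.Helper67.Elus Cfsg.Agent.Lib.Helper21.Uni

variable {F : Type*} [Field F] {V : Type*} [AddCommGroup V] [Module F V]

/-- S3 -/
theorem even_finrank_range [FiniteDimensional F V] (B : LinearMap.BilinForm F V)
    (hB : B.Nondegenerate) (M : Module.End F V) (hM : ∀ u, B (M u) u = 0) :
    Even (finrank F (LinearMap.range M)) := by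
  classical
  have hA : (B.compLeft M).IsAlt := fun u => hM u
  obtain ⟨m, k, b, h1, h2, h3, h4⟩ := Cfsg.Agent.S0752.result (B.compLeft M) hA
  have h1' : ∀ i j : Fin m, B (M (b (Sum.inl (Sum.inl i)))) (b (Sum.inl (Sum.inr j))) =
      if i = j then 1 else 0 := h1
  have h2' : ∀ i j : Fin m, B (M (b (Sum.inl (Sum.inl i)))) (b (Sum.inl (Sum.inl j))) = 0 := h2
  have h3' : ∀ i j : Fin m, B (M (b (Sum.inl (Sum.inr i)))) (b (Sum.inl (Sum.inr j))) = 0 := h3
  have h5 : ∀ i j : Fin m, B (M (b (Sum.inl (Sum.inr i)))) (b (Sum.inl (Sum.inl j))) =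
      - (if j = i then 1 else 0) := by
    intro i j
    have := hA.neg_eq (b (Sum.inl (Sum.inl j))) (b (Sum.inl (Sum.inr i)))
    rw [h1] at this
    exact this.symm
  have hrad : ∀ j : Fin k, M (b (Sum.inr j)) = 0 := fun j => hB.1 _ (h4 j)
  have hli : LinearIndependent F (fun i : Fin m ⊕ Fin m => M (b (Sum.inl i))) := by
    rw [Fintype.linearIndependent_iff]
    intro g hg
    have key : ∀ v, ∑ i, g i * B (M (b (Sum.inl i))) v = 0 := by
      intro v
      have := congrArg (fun w => B w v) hg
      simpa [map_sum, LinearMap.sum_apply] using this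
    rintro (j | j)
    · have := key (b (Sum.inl (Sum.inr j)))
      rw [Fintype.sum_sum_type] at this
      simpa [h1', h3'] using this
    · have := key (b (Sum.inl (Sum.inl j)))
      rw [Fintype.sum_sum_type] at this
      simpa [h2', h5] using this
  have hrange : LinearMap.range M =
      Submodule.span F (Set.range (fun i : Fin m ⊕ Fin m => M (b (Sum.inl i)))) := by
    rw [LinearMap.range_eq_map, ← b.span_eq, Submodule.map_span]
    apply le_antisymm
    · rw [Submodule.span_le]
      rintro _ ⟨_, ⟨i, rfl⟩, rfl⟩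
      rcases i with i | j
      · exact Submodule.subset_span ⟨i, rfl⟩
      · rw [hrad]; exact Submodule.zero_mem _
    · rw [Submodule.span_le]
      rintro _ ⟨i, rfl⟩
      exact Submodule.subset_span ⟨_, ⟨Sum.inl i, rfl⟩, rfl⟩
  rw [hrange, finrank_span_eq_card hli]
  simp

end Cfsg.Agent.Lib.Helper96.Uni
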