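import Cfsg.Agent.Lib.Helper21.Uni.Defs

set_option autoImplicit false

/-! # Uni farm (helper21), piece [I1] -/

namespace Cfsg.Agent.Lib.Helper96.Uni

open Matrix Module Cfsg.Agent.Lib.Helper67.Elus Cfsg.Agent.Lib.Helper21.Uni

/-- I1 -/
theorem exists_pair_of_adm {μ : Multiset ℕ} (hA : Adm μ) (hs : Even μ.sum) (h0 : μ ≠ 0) :
    ∃ (e e' : ℕ) (μ' : Multiset ℕ), μ = {e, e'} + μ' ∧ (e = e' ∨ (Odd e ∧ Odd e')) ∧ Adm μ' ∧
      Even μ'.sum := by
  have hpair : ∀ (e e' : ℕ) (μ' : Multiset ℕ), ({e, e'} : Multiset ℕ) + μ' = e ::ₘ e' ::ₘ μ' := by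
    intro e e' μ'
    rw [Multiset.insert_eq_cons, Multiset.cons_add, Multiset.singleton_add]
  by_cases hev : ∃ e ∈ μ, Even e
  · obtain ⟨e, heμ, he⟩ := hev
    obtain ⟨t, rfl⟩ := Multiset.exists_cons_of_mem heμ
    have h1 := hA e he
    rw [Multiset.count_cons_self] at h1
    have h2 : e ∈ t := by
      rw [← Multiset.count_pos]
      rcases Nat.eq_zero_or_pos (Multiset.count e t) with h3 | h3
      · rw [h3] at h1; simp at h1
      · exact h3
    obtain ⟨μ', rfl⟩ := Multiset.exists_cons_of_mem h2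
    refine ⟨e, e, μ', (hpair e e μ').symm, Or.inl rfl, ?_, ?_⟩
    · intro a ha
      have h3 := hA a ha
      rw [Multiset.count_cons, Multiset.count_cons] at h3
      rw [Nat.even_iff] at h3 ⊢
      split_ifs at h3 <;> omega
    · rw [Multiset.sum_cons, Multiset.sum_cons] at hs
      rw [Nat.even_iff] at hs ⊢
      omega
  · push Not at hev
    obtain ⟨e, heμ⟩ := Multiset.exists_mem_of_ne_zero h0
    have heo : ¬ Even e := hev e heμ
    obtain ⟨t, rfl⟩ := Multiset.exists_cons_of_mem heμ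
    have ht0 : t ≠ 0 := by
      rintro rfl
      rw [Multiset.sum_cons, Multiset.sum_zero, add_zero] at hs
      exact heo hs
    obtain ⟨e', he't⟩ := Multiset.exists_mem_of_ne_zero ht0
    have he'o : ¬ Even e' := hev e' (Multiset.mem_cons_of_mem he't)
    obtain ⟨μ', rfl⟩ := Multiset.exists_cons_of_mem he't
    refine ⟨e, e', μ', (hpair e e' μ').symm,
      Or.inr ⟨Nat.not_even_iff_odd.1 heo, Nat.not_even_iff_odd.1 he'o⟩, ?_, ?_⟩
    · intro a ha
      have h3 := hA a ha
      have h4 : a ≠ e := by rintro rfl; exact heo ha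
      have h5 : a ≠ e' := by rintro rfl; exact he'o ha
      rwa [Multiset.count_cons_of_ne h4, Multiset.count_cons_of_ne h5] at h3
    · rw [Multiset.sum_cons, Multiset.sum_cons] at hs
      rw [Nat.even_iff] at hs heo he'o ⊢
      omega

end Cfsg.Agent.Lib.Helper96.Uni
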