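import Cfsg.Agent.Lib.Helper21.Uni.Defs
import Cfsg.Agent.Lib.Helper19.Uni.C1
import Cfsg.Agent.Lib.Helper19.Uni.C2
import Cfsg.Agent.Lib.Helper19.Uni.C3
import Cfsg.Agent.Lib.Helper19.Uni.C5
import Cfsg.Agent.Lib.Helper19.Uni.C6
import Cfsg.Agent.Lib.Helper19.Uni.C7
import Cfsg.Agent.Lib.Helper19.Uni.C8
import Cfsg.Agent.Lib.Helper30.Uni.C10
import Cfsg.Agent.Lib.Helper30.Uni.C11
import Cfsg.Agent.Lib.Helper30.Uni.G1
import Cfsg.Agent.Lib.Helper30.Uni.G5
import Cfsg.Agent.Lib.Helper89.Uni.J3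
import Cfsg.Agent.Lib.Helper89.Uni.G3
import Cfsg.Agent.Lib.Helper89.Uni.G4
import Cfsg.Agent.Lib.Helper96.Uni.I1

set_option autoImplicit false

/-! # Uni farm (helper21), piece [I2] -/

namespace Cfsg.Agent.Lib.Helper96.Uni

open Matrix Module Cfsg.Agent.Lib.Helper67.Elus Cfsg.Agent.Lib.Helper21.Uni
open Cfsg.Agent.Lib.Helper19.Uni

variable {F : Type*} [Field F]

/-- G6 (copy of the proof in the stub file) -/
theorem I2_realM_odd (a : ℕ) {c : F} (hc : c ≠ 0) :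
    RealM (bs (Ln c) (Hy (Fin a) F)) {2 * a + 1} := by
  have hc' : (-1 : F) ^ a * c ≠ 0 := mul_ne_zero (pow_ne_zero _ (by simp)) hc
  have h1 : RealM (((-1 : F) ^ a * c) • anti F (2 * a + 1)) {2 * a + 1} := by
    refine ⟨shift F (2 * a + 1), Cfsg.Agent.Lib.Helper89.Uni.jtype_shift _, ?_⟩
    rw [Matrix.mul_smul, Cfsg.Agent.Lib.Helper30.Uni.shift_anti, Matrix.smul_mul, smul_neg]
  have h2 := Cfsg.Agent.Lib.Helper89.Uni.realM_congr h1
    (Cfsg.Agent.Lib.Helper30.Uni.cg_anti_odd a hc')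
  have h3 : (-1 : F) ^ a * ((-1) ^ a * c) = c := by
    rw [← mul_assoc, ← pow_add, ← two_mul, pow_mul]
    simp
  rwa [h3] at h2

/-- G7 (copy of the proof in the stub file) -/
theorem I2_realM_odd_pair (h2 : (2 : F) ≠ 0) (a a' : ℕ) :
    RealM (Hy (Fin (a + a' + 1)) F) {2 * a + 1, 2 * a' + 1} := by
  have h1 := Cfsg.Agent.Lib.Helper89.Uni.realM_blocks (I2_realM_odd (F := F) a (c := 1) one_ne_zero)
    (I2_realM_odd (F := F) a' (c := -1) (by simp))
  have e : Unit ⊕ (Fin a ⊕ Fin a') ≃ Fin (a + a' + 1) :=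
    Fintype.equivFinOfCardEq (by simp; ring)
  have hc : Cg (bs (bs (Ln (1 : F)) (Hy (Fin a) F)) (bs (Ln (-1 : F)) (Hy (Fin a') F)))
      (Hy (Fin (a + a' + 1)) F) :=
    cg_trans (cg_trans (cg_interchange _ _ _ _)
      (cg_blocks (Cfsg.Agent.Lib.Helper30.Uni.cg_lines h2 one_ne_zero) cg_hy_sum))
      (cg_trans cg_hy_sum (cg_hy_congr e))
  exact Cfsg.Agent.Lib.Helper89.Uni.realM_congr h1 hc

theorem I2_step (k d' : ℕ) {μ₁ μ₂ : Multiset ℕ} (h₁ : RealM (Hy (Fin k) F) μ₁)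
    (h₂ : RealM (Hy (Fin d') F) μ₂) : RealM (Hy (Fin (k + d')) F) (μ₁ + μ₂) :=
  Cfsg.Agent.Lib.Helper89.Uni.realM_congr (Cfsg.Agent.Lib.Helper89.Uni.realM_blocks h₁ h₂)
    (cg_trans cg_hy_sum (cg_hy_congr finSumFinEquiv))

theorem I2_zero : RealM (Hy (Fin 0) F) 0 := by
  refine ⟨0, ⟨Empty, inferInstance, fun k => k.elim, Module.Basis.empty _, rfl, ?_⟩, by simp⟩
  intro k
  exact k.elim

/-- I2 -/
theorem realM_plus (h2 : (2 : F) ≠ 0) (μ : Multiset ℕ) (hA : Adm μ) (d : ℕ) (hs : μ.sum = 2 * d) :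
    RealM (Hy (Fin d) F) μ := by
  induction hn : Multiset.card μ using Nat.strong_induction_on generalizing μ d with
  | _ n ih =>
    by_cases h0 : μ = 0
    · subst h0
      have hd : d = 0 := by
        rw [Multiset.sum_zero] at hs; omega
      subst hd
      exact I2_zero
    · obtain ⟨e, e', μ', rfl, hee, hA', hs'⟩ :=
        exists_pair_of_adm hA (by rw [hs]; exact even_two_mul d) h0
      obtain ⟨d', hd'⟩ := hs'
      have hcard : Multiset.card μ' < n := by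
        rw [← hn, Multiset.card_add]
        simp
      have ih' := ih _ hcard μ' hA' d' (by rw [hd']; ring) rfl
      have hsum : e + e' + (d' + d') = 2 * d := by
        rw [← hs, Multiset.sum_add, hd']
        simp
      rcases hee with rfl | ⟨⟨a, rfl⟩, ⟨a', rfl⟩⟩
      · have hd : d = e + d' := by omega
        subst hd
        exact I2_step e d' (Cfsg.Agent.Lib.Helper30.Uni.realM_pair e) ih'
      · have hd : d = (a + a' + 1) + d' := by omega
        subst hd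
        exact I2_step _ d' (I2_realM_odd_pair h2 a a') ih'

end Cfsg.Agent.Lib.Helper96.Uni
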