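import Cfsg.Agent.Lib.Helper96.Uni.I2

set_option autoImplicit false

/-! # Uni farm (helper21), piece [I3] -/

namespace Cfsg.Agent.Lib.Helper96.Uni

open Matrix Module Cfsg.Agent.Lib.Helper67.Elus Cfsg.Agent.Lib.Helper21.Uni
open Cfsg.Agent.Lib.Helper19.Uni

variable {F : Type*} [Field F]

/-- I3 -/
theorem realM_oddDim (h2 : (2 : F) ≠ 0) {c : F} (hc : c ≠ 0) (μ : Multiset ℕ) (hA : Adm μ) (d : ℕ)
    (hs : μ.sum = 2 * d + 1) : RealM (bs (Ln c) (Hy (Fin d) F)) μ := by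
  obtain ⟨e, heμ, heo⟩ : ∃ e ∈ μ, Odd e := by
    by_contra hcon
    push Not at hcon
    have h1 : 2 ∣ μ.sum := Multiset.dvd_sum (fun x hx =>
      even_iff_two_dvd.1 (Nat.not_odd_iff_even.1 (hcon x hx)))
    rw [hs] at h1
    omega
  obtain ⟨μ', rfl⟩ := Multiset.exists_cons_of_mem heμ
  obtain ⟨a, rfl⟩ := heo
  have hA' : Adm μ' := by
    intro x hx
    have h3 := hA x hx
    have h4 : x ≠ 2 * a + 1 := by
      rintro rfl
      rw [Nat.even_iff] at hx
      omega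
    rwa [Multiset.count_cons_of_ne h4] at h3
  rw [Multiset.sum_cons] at hs
  obtain ⟨d', rfl⟩ : ∃ d', d = a + d' := ⟨d - a, by omega⟩
  have h5 := realM_plus h2 μ' hA' d' (by omega)
  have h6 := Cfsg.Agent.Lib.Helper89.Uni.realM_blocks (I2_realM_odd (F := F) a hc) h5
  rw [Multiset.singleton_add] at h6
  exact Cfsg.Agent.Lib.Helper89.Uni.realM_congr h6
    (cg_trans (cg_assoc _ _ _)
      (cg_blocks (cg_refl _) (cg_trans cg_hy_sum (cg_hy_congr finSumFinEquiv))))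

end Cfsg.Agent.Lib.Helper96.Uni
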