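import Cfsg.Agent.Lib.Helper21.Uni.Defs
import Cfsg.Agent.Lib.Helper67.Elus.J2
import Cfsg.Agent.Lib.Helper67.Elus.J1c
import Cfsg.Agent.Lib.Helper67.Elus.J5b

set_option autoImplicit false

/-! # Uni farm (helper21), piece [S7] -/

namespace Cfsg.Agent.Lib.Helper96.Uni

open Matrix Module Cfsg.Agent.Lib.Helper67.Elus Cfsg.Agent.Lib.Helper21.Uni

variable {F : Type*} [Field F] {V : Type*} [AddCommGroup V] [Module F V]

/-- S7 -/
theorem isotropic_of_twos [FiniteDimensional F V] (B : LinearMap.BilinForm F V)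
    {N : Module.End F V} (hs : Skew B N) (W : Submodule F V) (hW : Inv N W) {ν : Multiset ℕ}
    (hν : JType (N.restrict hW) ν) (h : ∀ e ∈ ν, e = 2) :
    ∃ U : Submodule F V, U ≤ W ∧ (∀ u ∈ U, ∀ v ∈ U, B u v = 0) ∧ 2 * finrank F U = finrank F W := by
  have hsq : (N.restrict hW) ^ 2 = 0 := jtype_pow_eq_zero hν (fun a ha => (h a ha).le)
  refine ⟨(LinearMap.range (N.restrict hW)).map W.subtype, Submodule.map_subtype_le _ _, ?_, ?_⟩
  · rintro _ ⟨_, ⟨a, rfl⟩, rfl⟩ _ ⟨_, ⟨b, rfl⟩, rfl⟩
    have h1 : N (N (b : V)) = 0 := by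
      have h0 : ((N.restrict hW) ^ 2) b = 0 := by rw [hsq]; rfl
      rw [pow_two] at h0
      exact congrArg Subtype.val h0
    change B (N (a : V)) (N (b : V)) = 0
    rw [hs, h1, map_zero, neg_zero]
  · have h1 := jtype_ker hν 1
    have h2 := jtype_sum hν
    have h3 := LinearMap.finrank_range_add_finrank_ker (N.restrict hW)
    rw [pow_one] at h1
    have h4 : ν = Multiset.replicate (Multiset.card ν) 2 := Multiset.eq_replicate_card.2 h
    have h5 : finrank F ((LinearMap.range (N.restrict hW)).map W.subtype) =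
        finrank F (LinearMap.range (N.restrict hW)) :=
      LinearEquiv.finrank_eq (Submodule.equivMapOfInjective _ W.subtype_injective _).symm
    generalize Multiset.card ν = n at h4
    rw [h4] at h1 h2
    simp only [Multiset.map_replicate, Multiset.sum_replicate, smul_eq_mul] at h1 h2
    rw [h5]
    norm_num at h1
    omega

end Cfsg.Agent.Lib.Helper96.Uni
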